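import Cfsg.Agent.H965.XZ.D3A
import Cfsg.Agent.H796.XZ.LinDefs
import Cfsg.Agent.H53.HC.Prod

/-!
# Linear primes, `w < p` blocks of size `e > 1` (helper965, for S4791 / S4927)

`exists_sylow` : the Sylow `p`-subgroup `P ≤ L_J`, `J` the nodes of the blocks; `linData_of` : the structure `LinData` of
helper796 with `P₀ = P`, from `C(P) ≤ L_{J ∪ J'}`.
-/

set_option autoImplicit false
set_option linter.unusedSectionVars false

namespace Cfsg.Agent.H965.XZ

open CoxeterSystem Cfsg.Agent.ChevalleyStructure.CoxeterGeom Cfsg.Agent.Tits.Roots Cfsg.Agent.Tits.Core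
  Cfsg.Agent.Tits.RootComb Cfsg.Agent.Tits.Exchange Cfsg.Agent.Nodes.Comb Cfsg.Agent.Nodes.Reps
  Cfsg.Agent.Nodes.BNOf Cfsg.Agent.Nodes.StabComb Cfsg.Agent.Nodes.Bruhat Cfsg.Agent.Nodes.OppDec
  Cfsg.Agent.Nodes.LeviDec Cfsg.Agent.Nodes.NormalForm Cfsg.Agent.ChevalleyStructure.WeylAbstract
  Cfsg.Agent.H35.Poin

/-! ### general facts -/

section gen

variable {I W Y : Type*} [Fintype I] [DecidableEq I] [Group W] [Finite W] [Group Y] [Finite Y] {M : CoxeterMatrix I}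
  {cs : CoxeterSystem M W} {A : I → I → ℤ} {h : IsCartan M A} {r : ℕ} {T : Subgroup Y} {n : I → Y}
  {X : (I → ℤ) → Subgroup Y} (R : RGD cs h r T n X)

include R

/-- the order of a parabolic subgroup -/
theorem card_PJ_LJ (J : Set I) :
    Nat.card (PJ cs h T X J) = Nat.card (LJ cs h T X J) * Nat.card (VJ cs h X J) := by
  rw [← Nat.card_prod]
  symm
  refine Nat.card_congr (Equiv.ofBijective (fun x : LJ cs h T X J × VJ cs h X J =>
    (⟨x.1 * x.2, mul_mem (LJ_le_PJ x.1.2) (VJ_le_PJ x.2.2)⟩ : PJ cs h T X J)) ⟨?_, ?_⟩)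
  · rintro ⟨l, v⟩ ⟨l', v'⟩ h1
    have h2 : (l : Y) * v = l' * v' := congrArg Subtype.val h1
    have h3 : (l' : Y)⁻¹ * l = v' * (v : Y)⁻¹ := by
      rw [eq_mul_inv_iff_mul_eq, mul_assoc, h2, inv_mul_cancel_left]
    have h4 : (l' : Y)⁻¹ * l ∈ (⊥ : Subgroup Y) := by
      rw [← LJ_inf_VJ R J]
      exact ⟨Subgroup.mul_mem _ (Subgroup.inv_mem _ l'.2) l.2,
        by rw [h3]; exact Subgroup.mul_mem _ v'.2 (Subgroup.inv_mem _ v.2)⟩
    have h5 : (l : Y) = l' := (inv_mul_eq_one.1 (Subgroup.mem_bot.1 h4)).symm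
    have h6 : (v : Y) = v' := by
      rw [h5] at h2
      exact mul_left_cancel h2
    exact Prod.ext (Subtype.ext h5) (Subtype.ext h6)
  · rintro ⟨x, hx⟩
    obtain ⟨l, hl, v, hv, e⟩ := (mem_PJ R).1 hx
    exact ⟨(⟨l, hl⟩, ⟨v, hv⟩), Subtype.ext e.symm⟩

theorem not_dvd_VJ {p : ℕ} [hp : Fact p.Prime] [hr : Fact r.Prime] (hpr : p ≠ r) (J : Set I) :
    ¬ p ∣ Nat.card (VJ cs h X J) := by
  have h1 : IsPGroup r ↥(VJ cs h X J) := R.isPGroup_Upos.to_le (VJ_le_U J)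
  obtain ⟨k, hk⟩ := IsPGroup.iff_card.1 h1
  rw [hk]
  intro h2
  exact hpr ((Nat.prime_dvd_prime_iff_eq hp.out hr.out).1 (hp.out.dvd_of_dvd_pow h2))

theorem not_dvd_B {p : ℕ} [hp : Fact p.Prime] [hr : Fact r.Prime] (hpr : p ≠ r) (hT : ¬ p ∣ Nat.card T) :
    ¬ p ∣ Nat.card (RGD.B cs h T X) := by
  have h1 : PJ cs h T X (∅ : Set I) = RGD.B cs h T X := PJ_empty
  have h2 : LJ cs h T X (∅ : Set I) = T := by
    unfold LJ
    have h3 : RGD.Sup X (RootsJ cs h (∅ : Set I)) = ⊥ := by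
      rw [eq_bot_iff]
      refine RGD.Sup_le fun x hx => ?_
      exfalso
      have h4 : x = 0 := funext fun k => hx.2 k (Set.notMem_empty k)
      exact hx.1.ne_zero h4
    rw [h3, sup_bot_eq]
  rw [← h1, card_PJ_LJ R, h2]
  intro h3
  rcases (hp.out.dvd_mul).1 h3 with h4 | h4
  · exact hT h4
  · exact not_dvd_VJ R hpr _ h4

/-- a Sylow subgroup in `L_J` -/
theorem exists_sylow_LJ {p : ℕ} [hp : Fact p.Prime] [hr : Fact r.Prime] (hpr : p ≠ r) {J : Set I}
    (hJ : ¬ p ∣ (PJ cs h T X J).index) : ∃ P : Sylow p Y, (P : Subgroup Y) ≤ LJ cs h T X J := by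
  have h1 : ¬ p ∣ (LJ cs h T X J).index := by
    intro h2
    have h3 := (LJ cs h T X J).index_mul_card
    rw [← (PJ cs h T X J).index_mul_card, card_PJ_LJ R] at h3
    have h4 : (LJ cs h T X J).index = (PJ cs h T X J).index * Nat.card (VJ cs h X J) := by
      refine Nat.eq_of_mul_eq_mul_right (Nat.card_pos (α := LJ cs h T X J)) ?_
      rw [h3]
      ring
    rw [h4] at h2
    rcases (hp.out.dvd_mul).1 h2 with h5 | h5
    · exact hJ h5
    · exact not_dvd_VJ R hpr _ h5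
  obtain ⟨Q⟩ : Nonempty (Sylow p (LJ cs h T X J)) := inferInstance
  have h2 : IsPGroup p ↥((Q : Subgroup ↥(LJ cs h T X J)).map (LJ cs h T X J).subtype) := Q.isPGroup'.map _
  obtain ⟨P, hP⟩ := h2.exists_le_sylow
  have h3 : Nat.card ↥((Q : Subgroup ↥(LJ cs h T X J)).map (LJ cs h T X J).subtype) = Nat.card (Q : Subgroup ↥(LJ cs h T X J)) :=
    Subgroup.card_map_of_injective (Subgroup.subtype_injective _)
  have h4 : ((Q : Subgroup ↥(LJ cs h T X J)).map (LJ cs h T X J).subtype) = P := by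
    refine Subgroup.eq_of_le_of_card_ge hP ?_
    rw [h3]
    have h5 := P.card_eq_multiplicity
    have h6 := Q.card_eq_multiplicity
    rw [h5, h6]
    refine Nat.pow_le_pow_right hp.out.pos ?_
    rw [← (LJ cs h T X J).index_mul_card]
    have h7 : (LJ cs h T X J).index ≠ 0 := Subgroup.index_ne_zero_of_finite
    rw [Nat.factorization_mul h7 Nat.card_pos.ne', Finsupp.add_apply,
      Nat.factorization_eq_zero_of_not_dvd h1, zero_add]
  refine ⟨P, ?_⟩
  rw [← h4]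
  exact Subgroup.map_subtype_le _

/-- a `p`-subgroup of `L_J` is contained in the subgroup generated by the root subgroups -/
theorem le_MJ {p : ℕ} [hp : Fact p.Prime] (hT : ¬ p ∣ Nat.card T) {J : Set I} {P : Subgroup Y} (hP : IsPGroup p P)
    (hPJ : P ≤ LJ cs h T X J) : P ≤ RGD.Sup X (RootsJ cs h J) := by
  have hn : LJ cs h T X J ≤ Subgroup.normalizer (RGD.Sup X (RootsJ cs h J) : Set Y) :=
    sup_le (R.T_le_normalizer fun _ hx => hx.1) Subgroup.le_normalizer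
  intro g hg
  have h1 : g ∈ ((LJ cs h T X J : Subgroup Y) : Set Y) := hPJ hg
  have hN := hn (hPJ hg)
  -- the image in `N / M`
  set N := Subgroup.normalizer (RGD.Sup X (RootsJ cs h J) : Set Y) with hNdef
  set K : Subgroup N := (RGD.Sup X (RootsJ cs h J)).subgroupOf N with hK
  have hKn : K.Normal := Subgroup.normal_in_normalizer
  let π : N →* N ⧸ K := QuotientGroup.mk' K
  have h2 : ∀ x (hx : x ∈ LJ cs h T X J), ∃ t : T, ∃ ht : (t : Y) ∈ N, π ⟨x, hn hx⟩ = π ⟨t, ht⟩ := by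
    intro x hx
    have h3 : x ∈ ((T ⊔ RGD.Sup X (RootsJ cs h J) : Subgroup Y) : Set Y) := hx
    rw [Subgroup.coe_mul_of_left_le_normalizer_right _ _ (R.T_le_normalizer fun _ hx => hx.1), Set.mem_mul] at h3
    obtain ⟨t, ht, s, hs, rfl⟩ := h3
    have htN : t ∈ N := (R.T_le_normalizer fun _ hx => hx.1) ht
    refine ⟨⟨t, ht⟩, htN, ?_⟩
    have h4 : (⟨t * s, hn hx⟩ : N) = ⟨t, htN⟩ * ⟨s, Subgroup.le_normalizer hs⟩ := rfl
    rw [h4, map_mul]
    have h5 : π ⟨s, Subgroup.le_normalizer hs⟩ = 1 := (QuotientGroup.eq_one_iff _).2 (Subgroup.mem_subgroupOf.2 hs)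
    rw [h5, mul_one]
  obtain ⟨t, ht, h3⟩ := h2 g (hPJ hg)
  -- orders
  obtain ⟨k, hk⟩ := hP ⟨g, hg⟩
  have hk' : g ^ p ^ k = 1 := congrArg Subtype.val hk
  have h4 : π ⟨g, hN⟩ ^ p ^ k = 1 := by
    rw [← map_pow]
    have : (⟨g, hN⟩ : N) ^ p ^ k = 1 := Subtype.ext hk'
    rw [this, map_one]
  have h5 : π ⟨g, hN⟩ ^ Nat.card T = 1 := by
    rw [h3, ← map_pow]
    have : (⟨(t : Y), ht⟩ : N) ^ Nat.card T = 1 := by
      refine Subtype.ext ?_
      show (t : Y) ^ Nat.card T = 1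
      rw [← Subgroup.coe_pow, pow_card_eq_one', Subgroup.coe_one]
    rw [this, map_one]
  have h6 : Nat.Coprime (p ^ k) (Nat.card T) := Nat.Coprime.pow_left _ ((Nat.Prime.coprime_iff_not_dvd hp.out).2 hT)
  have h7 : π ⟨g, hN⟩ = 1 := by
    rw [← pow_one (π ⟨g, hN⟩), ← h6.gcd_eq_one]
    exact pow_gcd_eq_one.2 ⟨h4, h5⟩
  have h8 := (QuotientGroup.eq_one_iff _).1 h7
  exact Subgroup.mem_subgroupOf.1 h8

end gen

/-! ### type `B_m` -/

section typeB

open Cfsg.Agent.H796.XZ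

variable {m : ℕ} {W Y : Type*} [Group W] [Finite W] [Group Y] [Finite Y]
  {cs : CoxeterSystem (CoxeterMatrix.B m) W} {A : Fin m → Fin m → ℤ} {h : IsCartan (CoxeterMatrix.B m) A} {r : ℕ}
  {T : Subgroup Y} {n : Fin m → Y} {X : (Fin m → ℤ) → Subgroup Y} (R : RGD cs h r T n X)

include h in
/-- the blocks and the tail are orthogonal -/
theorem orth_JA_JT {e w : ℕ} : Cfsg.Agent.H53.HC.Orth A (JA m e w) (JT m e w) := by
  rintro i ⟨h1, -⟩ j hj
  have h2 : e * w ≤ (j : ℕ) := hj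
  refine ⟨?_, cart_far h (by omega)⟩
  rintro rfl
  omega

include R

/-- **The index of `P_{JA}` is prime to `p`.** -/
theorem not_dvd_index (hG : GG cs h T X = ⊤) {p : ℕ} [hp : Fact p.Prime] {y z e v w : ℕ}
    (hy : ∀ i : Fin m, (i : ℕ) + 1 < m → Nat.card (X (sr i)) = y)
    (hz : ∀ i : Fin m, (i : ℕ) + 1 = m → Nat.card (X (sr i)) = z) (he : 1 < e) (ho : orderOf (y : ZMod p) = e)
    (hm0 : 0 < m) (hm : m = v + e * w) (hv : v < e) (hw : w < p) (hlin : ∀ i < m, ¬ p ∣ 1 + y ^ i * z) :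
    ¬ p ∣ (PJ cs h T X (JA m e w)).index := by
  have h1 := (PJ cs h T X (JA m e w)).index_mul_card
  have h2 : Nat.card ↥(PJ cs h T X (JA m e w)) = fac y e ^ w * Nat.card ↥(RGD.B cs h T X) :=
    card_JA R hy (by omega) w (by omega)
  have h3 : Nat.card Y = (fac y m * ∏ i ∈ Finset.range m, (1 + y ^ i * z)) * Nat.card ↥(RGD.B cs h T X) := by
    rw [card_top_B R hG hy hz hm0, Finset.prod_mul_distrib]
    rfl
  rw [h2, h3, ← mul_assoc] at h1
  have h4 := Nat.eq_of_mul_eq_mul_right Nat.card_pos h1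
  have hdiv : m / e = w := by
    rw [hm, Nat.add_mul_div_left _ _ (by omega), Nat.div_eq_of_lt hv, zero_add]
  have hlt : m < e * p := by
    have h5 : e * (w + 1) ≤ e * p := Nat.mul_le_mul_left e hw
    rw [Nat.mul_succ] at h5
    omega
  obtain ⟨u, hu, h5⟩ := exists_fac (p := p) ho m hlt
  obtain ⟨u', hu', h6⟩ := exists_fac (p := p) ho e (lt_mul_of_one_lt_right (by omega) hp.out.one_lt)
  rw [hdiv] at h5
  rw [Nat.div_self (by omega), pow_one] at h6
  rw [h5, h6, mul_pow] at h4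
  have hpos : 0 < gs y e ^ w := by
    obtain ⟨k, rfl⟩ : ∃ k, e = k + 1 := ⟨e - 1, by omega⟩
    exact pow_pos (gs_pos y k) _
  have h7 : (PJ cs h T X (JA m e w)).index * u' ^ w = u * ∏ i ∈ Finset.range m, (1 + y ^ i * z) := by
    refine Nat.eq_of_mul_eq_mul_left hpos ?_
    calc gs y e ^ w * ((PJ cs h T X (JA m e w)).index * u' ^ w) =
        (PJ cs h T X (JA m e w)).index * (gs y e ^ w * u' ^ w) := by ring
      _ = gs y e ^ w * u * ∏ i ∈ Finset.range m, (1 + y ^ i * z) := h4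
      _ = _ := by ring
  intro h8
  have h9 : p ∣ u * ∏ i ∈ Finset.range m, (1 + y ^ i * z) := by
    rw [← h7]
    exact Dvd.dvd.mul_right h8 _
  rcases (hp.out.dvd_mul).1 h9 with h10 | h10
  · exact hu h10
  · obtain ⟨i, hi, h11⟩ := (Prime.dvd_finsetProd_iff hp.out.prime _).1 h10
    exact hlin i (Finset.mem_range.1 hi) h11

/-- a Sylow subgroup is contained in no smaller parabolic subgroup -/
theorem ell_of_sylow {p : ℕ} [hp : Fact p.Prime] {y e w : ℕ}
    (hy : ∀ i : Fin m, (i : ℕ) + 1 < m → Nat.card (X (sr i)) = y) (he : 1 < e) (ho : orderOf (y : ZMod p) = e)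
    (hw : e * w ≤ m) {P : Sylow p Y} (hP : (P : Subgroup Y) ≤ PJ cs h T X (JA m e w)) (K : Set (Fin m))
    (hK : K ⊆ JA m e w) (hex : ∃ a ∈ PJ cs h T X (JA m e w), ∀ x ∈ (P : Subgroup Y), a⁻¹ * x * a ∈ PJ cs h T X K) :
    K = JA m e w := by
  by_contra hne
  obtain ⟨j, hj, hjK⟩ : ∃ j ∈ JA m e w, j ∉ K := by
    by_contra hcon
    push Not at hcon
    exact hne (Set.Subset.antisymm hK hcon)
  obtain ⟨a, -, ha⟩ := hex
  obtain ⟨b, c, hb0, hb, hc0, hc, -, hcard⟩ := card_JA_sub (h := h) R hy (e := e) (w := w) (by omega) hw (j := j) hj.1 hj.2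
  have h0 : {k : Fin m | (k : ℕ) + 1 < e * w ∧ ¬ e ∣ (k : ℕ) + 1} = JA m e w := rfl
  rw [h0] at hcard
  set P1 := PJ cs h T X (JA m e w) with hP1
  set P2 := PJ cs h T X (JA m e w \ {j}) with hP2
  have hKj : PJ cs h T X K ≤ P2 := Cfsg.Agent.H554.RG.PJ_mono R fun k hk => ⟨hK hk, fun h1 => hjK (by
    rw [← Set.mem_singleton_iff.1 h1]; exact hk)⟩
  -- `|P|` divides `|P₂|`
  have h1 : Nat.card (P : Subgroup Y) ∣ Nat.card P2 := by
    let φ : (P : Subgroup Y) →* P2 :=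
      { toFun := fun x => ⟨a⁻¹ * x * a, hKj (ha x x.2)⟩
        map_one' := Subtype.ext (by show a⁻¹ * 1 * a = 1; group)
        map_mul' := fun x x' => Subtype.ext (by
          show a⁻¹ * ((x : Y) * x') * a = (a⁻¹ * x * a) * (a⁻¹ * x' * a)
          group) }
    have hφ : Function.Injective φ := by
      intro x x' hxx
      have h2 : a⁻¹ * (x : Y) * a = a⁻¹ * x' * a := congrArg Subtype.val hxx
      exact Subtype.ext (mul_left_cancel (mul_right_cancel h2))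
    exact Subgroup.card_dvd_of_injective φ hφ
  -- `|P₁| = |P| u`, `p ∤ u`
  have h2 : ∃ u, ¬ p ∣ u ∧ Nat.card P1 = Nat.card (P : Subgroup Y) * u := by
    obtain ⟨u, hu⟩ := Subgroup.card_dvd_of_le hP
    refine ⟨u, fun h3 => ?_, hu⟩
    have h4 : p ∣ (P : Subgroup Y).index := by
      have h5 := (P : Subgroup Y).index_mul_card
      rw [← P1.index_mul_card, hu] at h5
      have h6 : (P : Subgroup Y).index = P1.index * u := by
        refine Nat.eq_of_mul_eq_mul_right (Nat.card_pos (α := (P : Subgroup Y))) ?_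
        rw [h5]
        ring
      rw [h6]
      exact Dvd.dvd.mul_left h3 _
    exact P.not_dvd_index h4
  obtain ⟨u, hu, h2⟩ := h2
  obtain ⟨u2, h1⟩ := h1
  rw [h2, h1] at hcard
  have h3 : u * (fac y b * fac y c) = fac y e * u2 := by
    refine Nat.eq_of_mul_eq_mul_left (Nat.card_pos (α := (P : Subgroup Y))) ?_
    calc Nat.card (P : Subgroup Y) * (u * (fac y b * fac y c)) = Nat.card (P : Subgroup Y) * u * (fac y b * fac y c) := by
          ring
      _ = fac y e * (Nat.card (P : Subgroup Y) * u2) := hcard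
      _ = _ := by ring
  have h4 : p ∣ fac y e := by
    obtain ⟨k, rfl⟩ : ∃ k, e = k + 1 := ⟨e - 1, by omega⟩
    rw [fac_succ]
    exact Dvd.dvd.mul_left (dvd_gs_e ho he) _
  have h5 : p ∣ u * (fac y b * fac y c) := by
    rw [h3]
    exact Dvd.dvd.mul_right h4 _
  rcases (hp.out.dvd_mul).1 h5 with h6 | h6
  · exact hu h6
  · rcases (hp.out.dvd_mul).1 h6 with h7 | h7
    · exact not_dvd_fac ho hb h7
    · exact not_dvd_fac ho hc h7

/-- the group of the tail -/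
theorem not_dvd_tail {p : ℕ} [hp : Fact p.Prime] [hr : Fact r.Prime] (hpr : p ≠ r) {y z e v w : ℕ}
    (hy : ∀ i : Fin m, (i : ℕ) + 1 < m → Nat.card (X (sr i)) = y)
    (hz : ∀ i : Fin m, (i : ℕ) + 1 = m → Nat.card (X (sr i)) = z) (ho : orderOf (y : ZMod p) = e)
    (hm0 : 0 < m) (hm : m = v + e * w) (hv : v < e) (hlin : ∀ i < m, ¬ p ∣ 1 + y ^ i * z)
    (hT : ¬ p ∣ Nat.card T) : ¬ p ∣ Nat.card ↥(RGD.Sup X (RootsJ cs h (JT m e w))) := by
  intro h1
  have h2 : RGD.Sup X (RootsJ cs h (JT m e w)) ≤ PJ cs h T X (JT m e w) := le_sup_right.trans LJ_le_PJ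
  have h3 : p ∣ Nat.card ↥(PJ cs h T X (JT m e w)) := h1.trans (Subgroup.card_dvd_of_le h2)
  rw [card_tail R hy hz hm0 (k := v) (by omega) (fun j => ⟨fun h4 => by
    have h5 : e * w ≤ (j : ℕ) := h4
    omega, fun h4 => by
    show e * w ≤ (j : ℕ)
    omega⟩)] at h3
  rcases (hp.out.dvd_mul).1 h3 with h4 | h4
  · rw [Finset.prod_mul_distrib] at h4
    rcases (hp.out.dvd_mul).1 h4 with h5 | h5
    · exact not_dvd_fac ho hv h5
    · obtain ⟨i, hi, h6⟩ := (Prime.dvd_finsetProd_iff hp.out.prime _).1 h5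
      rw [Finset.mem_range] at hi
      exact hlin i (by omega) h6
  · exact not_dvd_B R hpr hT h4

/-- **(D3), `w < p`, `e > 1`.** -/
theorem linData_of (hG : GG cs h T X = ⊤) {p : ℕ} [hp : Fact p.Prime] [hr : Fact r.Prime] (hpr : p ≠ r) {y z e v w : ℕ}
    (hy : ∀ i : Fin m, (i : ℕ) + 1 < m → Nat.card (X (sr i)) = y)
    (hz : ∀ i : Fin m, (i : ℕ) + 1 = m → Nat.card (X (sr i)) = z) (he : 1 < e) (ho : orderOf (y : ZMod p) = e)
    (hm0 : 0 < m) (hm : m = v + e * w) (hv : v < e) (hw : w < p) (hlin : ∀ i < m, ¬ p ∣ 1 + y ^ i * z)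
    (hT : ¬ p ∣ Nat.card T) :
    ∃ P : Sylow p Y, (P : Subgroup Y) ≤ LJ cs h T X (JA m e w) ∧
      (Subgroup.centralizer (P : Set Y) ≤ LJ cs h T X (JA m e w ∪ JT m e w) →
        LinData cs h T X p (JA m e w) (JT m e w) P P) := by
  obtain ⟨P, hP⟩ := exists_sylow_LJ R hpr (not_dvd_index R hG hy hz he ho hm0 hm hv hw hlin)
  refine ⟨P, hP, fun hcen => ⟨le_rfl, fun g hg x hx => mul_mem (mul_mem (inv_mem hg) hx) hg, hP, ?_, ?_, ?_, hcen⟩⟩
  · exact fun K hK hex => ell_of_sylow R hy he ho (by omega) (hP.trans LJ_le_PJ) K hK hex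
  · intro x hx g hg
    exact (orth_JA_JT (h := h)).comm R x (le_MJ R hT P.isPGroup' hP hx) g hg
  · exact not_dvd_tail R hpr hy hz ho hm0 hm hv hlin hT

end typeB

end Cfsg.Agent.H965.XZ
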