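import Cfsg.Agent.H965.XZ.D3B

/-!
# The smaller parabolic subgroups (helper965, for S4791 / S4927)

`dvd_relIndex` : `p ∣ |P_J : P_K|` for `K ⊊ J`, `J` the nodes of the blocks of size `e > 1`.
-/

set_option autoImplicit false
set_option linter.unusedSectionVars false

namespace Cfsg.Agent.H965.XZ

open CoxeterSystem Cfsg.Agent.ChevalleyStructure.CoxeterGeom Cfsg.Agent.Tits.Roots Cfsg.Agent.Tits.Core
  Cfsg.Agent.Tits.RootComb Cfsg.Agent.Tits.Exchange Cfsg.Agent.Nodes.Comb Cfsg.Agent.Nodes.Reps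
  Cfsg.Agent.Nodes.BNOf Cfsg.Agent.Nodes.StabComb Cfsg.Agent.Nodes.Bruhat Cfsg.Agent.Nodes.OppDec
  Cfsg.Agent.Nodes.LeviDec Cfsg.Agent.Nodes.NormalForm Cfsg.Agent.ChevalleyStructure.WeylAbstract
  Cfsg.Agent.H35.Poin Cfsg.Agent.H796.XZ

variable {m : ℕ} {W Y : Type*} [Group W] [Finite W] [Group Y] [Finite Y]
  {cs : CoxeterSystem (CoxeterMatrix.B m) W} {A : Fin m → Fin m → ℤ} {h : IsCartan (CoxeterMatrix.B m) A} {r : ℕ}
  {T : Subgroup Y} {n : Fin m → Y} {X : (Fin m → ℤ) → Subgroup Y} (R : RGD cs h r T n X)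

include R

/-- **`p` divides the index.** -/
theorem dvd_relIndex {p : ℕ} [hp : Fact p.Prime] {y e w : ℕ}
    (hy : ∀ i : Fin m, (i : ℕ) + 1 < m → Nat.card (X (sr i)) = y) (he : 1 < e) (ho : orderOf (y : ZMod p) = e)
    (hw : e * w ≤ m) {K : Set (Fin m)} (hK : K ⊆ JA m e w) (hne : K ≠ JA m e w) :
    p ∣ (PJ cs h T X K).relIndex (PJ cs h T X (JA m e w)) := by
  obtain ⟨j, hj, hjK⟩ : ∃ j ∈ JA m e w, j ∉ K := by
    by_contra hcon
    push Not at hcon
    exact hne (Set.Subset.antisymm hK hcon)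
  obtain ⟨b, c, hb0, hb, hc0, hc, -, hcard⟩ := card_JA_sub (h := h) R hy (e := e) (w := w) (by omega) hw (j := j) hj.1 hj.2
  have h0 : {k : Fin m | (k : ℕ) + 1 < e * w ∧ ¬ e ∣ (k : ℕ) + 1} = JA m e w := rfl
  rw [h0] at hcard
  set P1 := PJ cs h T X (JA m e w) with hP1
  set P2 := PJ cs h T X (JA m e w \ {j}) with hP2
  have hKj : PJ cs h T X K ≤ P2 := Cfsg.Agent.H554.RG.PJ_mono R fun k hk => ⟨hK hk, fun h1 => hjK (by
    rw [← Set.mem_singleton_iff.1 h1]; exact hk)⟩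
  have h21 : P2 ≤ P1 := Cfsg.Agent.H554.RG.PJ_mono R Set.sdiff_subset
  have h1 : p ∣ P2.relIndex P1 := by
    have h2 : Nat.card P1 = P2.relIndex P1 * Nat.card P2 := by
      rw [Subgroup.relIndex, ← (P2.subgroupOf P1).index_mul_card,
        Nat.card_congr (Subgroup.subgroupOfEquivOfLe h21).toEquiv]
    rw [h2] at hcard
    have h3 : P2.relIndex P1 * (fac y b * fac y c) = fac y e := by
      refine Nat.eq_of_mul_eq_mul_right (Nat.card_pos (α := P2)) ?_
      rw [← hcard]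
      ring
    have h4 : p ∣ fac y e := by
      obtain ⟨k, rfl⟩ : ∃ k, e = k + 1 := ⟨e - 1, by omega⟩
      rw [fac_succ]
      exact Dvd.dvd.mul_left (dvd_gs_e ho he) _
    rw [← h3] at h4
    rcases (hp.out.dvd_mul).1 h4 with h5 | h5
    · exact h5
    · exfalso
      rcases (hp.out.dvd_mul).1 h5 with h6 | h6
      · exact not_dvd_fac ho hb h6
      · exact not_dvd_fac ho hc h6
  rw [← Subgroup.relIndex_mul_relIndex _ _ _ hKj h21]
  exact Dvd.dvd.mul_left h1 _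

end Cfsg.Agent.H965.XZ
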